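/-
Triangles: abelian subgroups A, B, C with (A, B), (C, B) rank one pairs and [A, C] = 1.
Then (A, B) is special, and there is an element centralizing B and conjugating A into C (helper735, section 63).
-/
import Cfsg.Agent.H733.RootBasics

set_option autoImplicit false
open Cfsg Cfsg.Agent.H731 Cfsg.Agent.H733

namespace Cfsg.Agent.H735

variable {G : Type*} [Group G] {A B C : Subgroup G}

theorem partner_right (h : IsRankOnePair A B) {a : G} (ha : a ∈ A) (ha1 : a ≠ 1) :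
    ∃ b ∈ B, b ≠ 1 ∧ conjBy A b = conjBy B a := by
  obtain ⟨b, hb, hb1, hab⟩ := h.cond_left a⁻¹ (A.inv_mem ha) (inv_ne_one.2 ha1)
  exact ⟨b⁻¹, B.inv_mem hb, inv_ne_one.2 hb1, by rw [hab, inv_inv]⟩

theorem partner_left (h : IsRankOnePair A B) {b : G} (hb : b ∈ B) (hb1 : b ≠ 1) :
    ∃ a ∈ A, a ≠ 1 ∧ conjBy A b = conjBy B a := by
  obtain ⟨a, ha, ha1, hab⟩ := h.cond_right b⁻¹ (B.inv_mem hb) (inv_ne_one.2 hb1)
  exact ⟨a⁻¹, A.inv_mem ha, inv_ne_one.2 ha1, by rw [hab, inv_inv]⟩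

/-- Criterion for specialness. -/
theorem special_of_inv (h : IsRankOnePair A B)
    (hinv : ∀ a ∈ A, a ≠ 1 → ∀ b ∈ B, b ≠ 1 → conjBy A b = conjBy B a → conjBy A b⁻¹ = conjBy B a⁻¹) :
    IsSpecialRankOnePair A B := by
  refine ⟨h, fun a ha ha1 b hb hb1 hab => ?_⟩
  have hab' : conjBy A b = conjBy B a := by
    have := hinv a⁻¹ (A.inv_mem ha) (inv_ne_one.2 ha1) b⁻¹ (B.inv_mem hb) (inv_ne_one.2 hb1) hab
    rwa [inv_inv, inv_inv] at this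
  have hx : b⁻¹ * a * b ∈ conjBy B a⁻¹ := by
    rw [← hab]
    have := conj_mem_conjBy ha b⁻¹
    rwa [inv_inv] at this
  rw [mem_conjBy, inv_inv] at hx
  -- hx : a * (b⁻¹ * a * b) * a⁻¹ ∈ B
  set b1 := a * (b⁻¹ * a * b) * a⁻¹ with hb1def
  have e1 : conjBy A (b⁻¹ * a * b)⁻¹ = B := by
    have e : (b⁻¹ * a * b)⁻¹ = b⁻¹ * a⁻¹ * b := by simp [mul_assoc]
    rw [e, ← conjBy_conjBy, hab', conjBy_conjBy, inv_mul_cancel_right, conjBy_of_mem (B.inv_mem hb)]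
  have e2 : (b⁻¹ * a * b)⁻¹ = a⁻¹ * b1⁻¹ * a := by
    rw [hb1def]; simp [mul_assoc]
  rw [e2, ← conjBy_conjBy, conjBy_of_mem ha, ← conjBy_conjBy, conjBy_inv_eq_iff, ← hab'] at e1
  have e3 := rankOne_conj_inj (RankOnePair_symm h) (B.inv_mem hx) hb e1
  have e4 : b1 = b⁻¹ := by rw [← e3, inv_inv]
  rw [hb1def] at e4
  have e5 : b⁻¹ * a * b = a⁻¹ * (a * (b⁻¹ * a * b) * a⁻¹) * a := by simp [mul_assoc]
  rw [e5, e4]

/-- **First triangle lemma**: `C = A^v` with `v` centralizing `B`. -/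
theorem triangle_exists_conj (hA : ⁅A, A⁆ = ⊥) (hB : ⁅B, B⁆ = ⊥) (hAB : IsRankOnePair A B)
    (hCB : IsRankOnePair C B) (hAC : ⁅A, C⁆ = ⊥) : ∃ v : G, (∀ b ∈ B, v * b = b * v) ∧ conjBy A v = C := by
  have cA := commutator_eq_bot_iff_forall.1 hA
  have cB := commutator_eq_bot_iff_forall.1 hB
  have cAC := commutator_eq_bot_iff_forall.1 hAC
  obtain ⟨b, hb, hb1⟩ := rankOne_exists_right hAB
  obtain ⟨a, ha, ha1, hab⟩ := partner_left hAB hb hb1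
  obtain ⟨c, hc, hc1, hcb⟩ := partner_left hCB hb hb1
  have hg : ∀ x ∈ A, (a⁻¹ * c) * x = x * (a⁻¹ * c) := by
    intro x hx
    rw [mul_assoc, ← cAC x hx c hc, ← mul_assoc, cA _ (A.inv_mem ha) x hx, mul_assoc]
  have hgA : conjBy A (a⁻¹ * c)⁻¹ = A := by
    rw [conjBy_inv_eq_iff, conjBy_of_commute hg]
  -- `B` commutes with its conjugate under `a⁻¹ c`
  have hBB : ⁅B, conjBy B (a⁻¹ * c)⁆ = ⊥ := by
    have h1 : ⁅conjBy A b, conjBy C b⁆ = ⊥ := commutator_conjBy_eq_bot_iff.2 hAC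
    rw [hab, hcb] at h1
    have h2 : conjBy B c = conjBy (conjBy B (a⁻¹ * c)) a := by rw [conjBy_conjBy, mul_inv_cancel_left]
    rw [h2] at h1
    exact commutator_conjBy_eq_bot_iff.1 h1
  have cBB := commutator_eq_bot_iff_forall.1 hBB
  refine ⟨b⁻¹ * ((a⁻¹ * c) * b * (a⁻¹ * c)⁻¹), ?_, ?_⟩
  · intro x hx
    have h1 := cBB x hx _ (conj_mem_conjBy hb (a⁻¹ * c))
    rw [mul_assoc, ← h1, ← mul_assoc, cB _ (B.inv_mem hb) x hx, mul_assoc]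
  · rw [← conjBy_conjBy, ← conjBy_conjBy _ ((a⁻¹ * c) * b), hgA, ← conjBy_conjBy, hab,
      conjBy_conjBy B (a⁻¹ * c)]
    have e : a⁻¹ * c * a = c := by rw [mul_assoc, ← cAC a ha c hc, inv_mul_cancel_left]
    rw [e, ← hcb, conjBy_conjBy, inv_mul_cancel, conjBy_one]

/-- Transport of partners by an element centralizing `B`. -/
theorem partner_transport {v : G} (hv : ∀ b ∈ B, v * b = b * v) {a b : G} (hb : b ∈ B)
    (hab : conjBy A b = conjBy B a) : conjBy (conjBy A v) b = conjBy B (v * a * v⁻¹) := by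
  have h1 : conjBy B v⁻¹ = B := by rw [conjBy_inv_eq_iff, conjBy_of_commute hv]
  rw [conjBy_conjBy, ← hv b hb, ← conjBy_conjBy, hab, ← conjBy_conjBy B (v * a), h1, ← conjBy_conjBy]

section setting

variable (hA : ⁅A, A⁆ = ⊥) (hB : ⁅B, B⁆ = ⊥) (hAB : IsRankOnePair A B) {v : G} (hv : ∀ b ∈ B, v * b = b * v)
  (hAv : ⁅A, conjBy A v⁆ = ⊥) (hne : conjBy A v ≠ A)

include hAv in
theorem conj_comm {a x : G} (ha : a ∈ A) (hx : x ∈ A) : (v * a * v⁻¹) * x = x * (v * a * v⁻¹) :=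
  ((commutator_eq_bot_iff_forall.1 hAv) x hx _ (conj_mem_conjBy ha v)).symm

include hA hAv in
/-- `u(a) = v a v⁻¹ a⁻¹` commutes with `A`. -/
theorem u_comm {a x : G} (ha : a ∈ A) (hx : x ∈ A) : (v * a * v⁻¹ * a⁻¹) * x = x * (v * a * v⁻¹ * a⁻¹) := by
  rw [mul_assoc, (commutator_eq_bot_iff_forall.1 hA) _ (A.inv_mem ha) x hx, ← mul_assoc, conj_comm hAv ha hx,
    mul_assoc]

include hAB hv hAv in
/-- `B` commutes with its conjugate under `u(a)`. -/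
theorem u_conj_comm {a : G} (ha : a ∈ A) (hB : ⁅B, B⁆ = ⊥) : ⁅B, conjBy B (v * a * v⁻¹ * a⁻¹)⁆ = ⊥ := by
  by_cases ha1 : a = 1
  · subst ha1
    simpa [conjBy_one] using hB
  obtain ⟨b, hb, hb1, hab⟩ := partner_right hAB ha ha1
  have h1 : ⁅conjBy A b, conjBy (conjBy A v) b⁆ = ⊥ := commutator_conjBy_eq_bot_iff.2 hAv
  rw [hab, partner_transport hv hb hab] at h1
  have h2 : conjBy B (v * a * v⁻¹) = conjBy (conjBy B (v * a * v⁻¹ * a⁻¹)) a := by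
    rw [conjBy_conjBy, ← mul_assoc, ← conj_comm hAv ha ha, mul_inv_cancel_right]
  rw [h2] at h1
  exact commutator_conjBy_eq_bot_iff.1 h1

include hAB hv hAv hne in
/-- `B` is different from its conjugate under `u(a)`, `a ≠ 1`. -/
theorem u_conj_ne {a : G} (ha : a ∈ A) (ha1 : a ≠ 1) : conjBy B (v * a * v⁻¹ * a⁻¹) ≠ B := by
  intro h
  obtain ⟨b, hb, hb1, hab⟩ := partner_right hAB ha ha1
  apply hne
  rw [← conjBy_inj (g := b), partner_transport hv hb hab, hab, ← conjBy_inj (g := a⁻¹), conjBy_conjBy,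
    conjBy_conjBy, inv_mul_cancel, conjBy_one]
  have e : a⁻¹ * (v * a * v⁻¹) = v * a * v⁻¹ * a⁻¹ := (conj_comm hAv ha (A.inv_mem ha)).symm
  rw [e]
  exact h

/-- The element `w(b) = b⁻¹ (u b u⁻¹)`. -/
def ww (u b : G) : G := b⁻¹ * (u * b * u⁻¹)

include hA hv hAv in
/-- `A^{w(b)} = A^v` for partners `a`, `b` and `u = u(a)`. -/
theorem conjBy_ww {a b : G} (ha : a ∈ A) (hb : b ∈ B) (hab : conjBy A b = conjBy B a) :
    conjBy A (ww (v * a * v⁻¹ * a⁻¹) b) = conjBy A v := by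
  set u := v * a * v⁻¹ * a⁻¹ with hu
  have h1 : conjBy A u⁻¹ = A := by
    rw [conjBy_inv_eq_iff, conjBy_of_commute fun x hx => u_comm hA hAv ha hx]
  have h2 : u * a = v * a * v⁻¹ := by rw [hu, inv_mul_cancel_right]
  unfold ww
  rw [← conjBy_conjBy, ← conjBy_conjBy A (u * b), h1, ← conjBy_conjBy A u, hab, conjBy_conjBy B u, h2,
    ← partner_transport hv hb hab, conjBy_conjBy (conjBy A v), inv_mul_cancel, conjBy_one]

include hB hAB hv hAv in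
/-- `w` is multiplicative. -/
theorem ww_mul {a b b' : G} (ha : a ∈ A) (hb : b ∈ B) (hb' : b' ∈ B) :
    ww (v * a * v⁻¹ * a⁻¹) (b * b') = ww (v * a * v⁻¹ * a⁻¹) b * ww (v * a * v⁻¹ * a⁻¹) b' := by
  have h1 := commutator_eq_bot_iff_forall.1 (u_conj_comm hAB hv hAv ha hB)
  set u := v * a * v⁻¹ * a⁻¹ with hu
  have h2 := h1 _ (B.inv_mem hb') _ (conj_mem_conjBy hb u)
  unfold ww
  calc (b * b')⁻¹ * (u * (b * b') * u⁻¹) = b'⁻¹ * b⁻¹ * (u * b * u⁻¹) * (u * b' * u⁻¹) := by simp [mul_assoc]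
    _ = b⁻¹ * b'⁻¹ * (u * b * u⁻¹) * (u * b' * u⁻¹) := by
      rw [(commutator_eq_bot_iff_forall.1 hB) _ (B.inv_mem hb') _ (B.inv_mem hb)]
    _ = b⁻¹ * (b'⁻¹ * (u * b * u⁻¹)) * (u * b' * u⁻¹) := by simp only [mul_assoc]
    _ = b⁻¹ * ((u * b * u⁻¹) * b'⁻¹) * (u * b' * u⁻¹) := by rw [h2]
    _ = b⁻¹ * (u * b * u⁻¹) * (b'⁻¹ * (u * b' * u⁻¹)) := by simp only [mul_assoc]

include hB hAB hv hAv in
/-- `w(b)` centralizes `B`. -/
theorem ww_comm {a b x : G} (ha : a ∈ A) (hb : b ∈ B) (hx : x ∈ B) :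
    ww (v * a * v⁻¹ * a⁻¹) b * x = x * ww (v * a * v⁻¹ * a⁻¹) b := by
  have h1 := (commutator_eq_bot_iff_forall.1 (u_conj_comm hAB hv hAv ha hB)) x hx _
    (conj_mem_conjBy hb (v * a * v⁻¹ * a⁻¹))
  unfold ww
  rw [mul_assoc, ← h1, ← mul_assoc, (commutator_eq_bot_iff_forall.1 hB) _ (B.inv_mem hb) x hx, mul_assoc]

include hA hAB hv hAv hne in
/-- `w(b)` does not normalize `A`, `b ≠ 1`. -/
theorem conjBy_ww_ne {a b : G} (ha : a ∈ A) (ha1 : a ≠ 1) (hb : b ∈ B) (hb1 : b ≠ 1) :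
    conjBy A (ww (v * a * v⁻¹ * a⁻¹) b) ≠ A := by
  intro h
  have h1 : conjBy A (v * a * v⁻¹ * a⁻¹)⁻¹ = A := by
    rw [conjBy_inv_eq_iff, conjBy_of_commute fun x hx => u_comm hA hAv ha hx]
  obtain ⟨a', ha', ha1', hab'⟩ := partner_left hAB hb hb1
  apply u_conj_ne hAB hv hAv hne ha ha1
  have h2 := u_comm hA hAv ha ha'
  set u := v * a * v⁻¹ * a⁻¹ with hu
  unfold ww at h
  rw [← conjBy_conjBy, ← conjBy_conjBy A (u * b), h1, conjBy_inv_eq_iff, ← conjBy_conjBy A u, hab',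
    conjBy_conjBy, h2, ← conjBy_conjBy, conjBy_inj] at h
  exact h

include hA hB hAB hv hAv hne in
/-- **Second triangle lemma**: the pair `(A, B)` is special. -/
theorem special_of_conj : IsSpecialRankOnePair A B := by
  refine special_of_inv hAB fun a ha ha1 b hb hb1 hab => ?_
  obtain ⟨b', hb', hb1', hab'⟩ := partner_right hAB (A.inv_mem ha) (inv_ne_one.2 ha1)
  have huA : conjBy (conjBy A v) (v * a * v⁻¹ * a⁻¹) = conjBy A v := by
    have e1 : conjBy (conjBy A v) a⁻¹ = conjBy A v := by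
      refine conjBy_of_commute ?_
      rintro _ ⟨x, hx, rfl⟩
      exact (conj_comm hAv hx (A.inv_mem ha)).symm
    rw [← conjBy_conjBy (conjBy A v) (v * a * v⁻¹), e1, conjBy_of_mem (conj_mem_conjBy ha v)]
  have hu' : v * a⁻¹ * v⁻¹ * a⁻¹⁻¹ = (v * a * v⁻¹ * a⁻¹)⁻¹ := by
    have := conj_comm hAv (A.inv_mem ha) ha
    rw [inv_inv, this]; simp [mul_assoc]
  have h1 := conjBy_ww hA hv hAv ha hb hab
  have h2 := conjBy_ww hA hv hAv (A.inv_mem ha) hb' hab'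
  rw [hu'] at h2
  set u := v * a * v⁻¹ * a⁻¹ with hu
  have huA' : conjBy A u = A := conjBy_of_commute fun x hx => u_comm hA hAv ha hx
  -- `A^{w(b')⁻¹} = A^v`
  have h3 : conjBy A (ww u b')⁻¹ = conjBy A v := by
    have e2 : (ww u b')⁻¹ = u * ww u⁻¹ b' * u⁻¹⁻¹⁻¹ := by unfold ww; simp [mul_assoc]
    rw [e2, ← conjBy_conjBy, inv_inv, (conjBy_inv_eq_iff).2 huA'.symm, ← conjBy_conjBy A u, h2, huA]
  by_contra hcon
  have hbb : b' * b ≠ 1 := by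
    intro h4
    apply hcon
    rw [← hab', eq_inv_of_mul_eq_one_left h4]
  apply conjBy_ww_ne hA hAB hv hAv hne ha ha1 (B.mul_mem hb' hb) hbb
  rw [ww_mul hB hAB hv hAv ha hb' hb, ← conjBy_conjBy, ← hu, h1, ← h3, conjBy_conjBy, mul_inv_cancel, conjBy_one]

end setting

/-! ### A relation in triangles with elements of order at least four -/

/-- An element centralizing `B` and normalizing `A` centralizes `A`. -/
theorem centralizes_of_fix (hAB : IsRankOnePair A B) {y : G} (hy : ∀ b ∈ B, y * b = b * y) (hyA : conjBy A y = A)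
    {a : G} (ha : a ∈ A) : y * a * y⁻¹ = a := by
  by_cases ha1 : a = 1
  · subst ha1; simp
  obtain ⟨b, hb, hb1, hab⟩ := partner_right hAB ha ha1
  have h1 := partner_transport hy hb hab
  rw [hyA, hab] at h1
  have h2 : y * a * y⁻¹ ∈ A := by
    have := conj_mem_conjBy ha y
    rwa [hyA] at this
  exact (rankOne_conj_inj hAB ha h2 h1).symm

section setting2

variable (hA : ⁅A, A⁆ = ⊥) (hB : ⁅B, B⁆ = ⊥) (hAB : IsRankOnePair A B) {v : G} (hv : ∀ b ∈ B, v * b = b * v)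
  (hAv : ⁅A, conjBy A v⁆ = ⊥) (hne : conjBy A v ≠ A)

include hA hB hAB hv hAv in
/-- `A` commutes with its conjugate under `w(b)`. -/
theorem ww_conj_comm {a b : G} (ha : a ∈ A) (hb : b ∈ B) :
    ⁅A, conjBy A (ww (v * a * v⁻¹ * a⁻¹) b)⁆ = ⊥ := by
  by_cases hb1 : b = 1
  · subst hb1
    unfold ww
    simpa [conjBy_one] using hA
  have h1 : conjBy A (v * a * v⁻¹ * a⁻¹)⁻¹ = A := by
    rw [conjBy_inv_eq_iff, conjBy_of_commute fun x hx => u_comm hA hAv ha hx]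
  obtain ⟨a', ha', ha1', hab'⟩ := partner_left hAB hb hb1
  have h2 := u_comm hA hAv ha ha'
  have h3 := u_conj_comm hAB hv hAv ha hB
  set u := v * a * v⁻¹ * a⁻¹ with hu
  have e1 : conjBy A (ww u b) = conjBy (conjBy B u) (b⁻¹ * a') := by
    unfold ww
    rw [← conjBy_conjBy, ← conjBy_conjBy A (u * b), h1, ← conjBy_conjBy A u, hab', conjBy_conjBy B u, h2,
      conjBy_conjBy, conjBy_conjBy, mul_assoc]
  have e2 : A = conjBy B (b⁻¹ * a') := by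
    rw [← conjBy_conjBy, ← hab', conjBy_conjBy, inv_mul_cancel, conjBy_one]
  rw [e1]
  conv_lhs => rw [e2]
  exact commutator_conjBy_eq_bot_iff.2 h3

include hA hB hAB hv hAv in
theorem relation {a b : G} (ha : a ∈ A) (hb : b ∈ B) (hfix : ww (v * a * v⁻¹ * a⁻¹) b = v) :
    a = (v * a * v⁻¹) * (v * v * a * v⁻¹ * v⁻¹)⁻¹ * (v * v * v * a * v⁻¹ * v⁻¹ * v⁻¹) *
      (v * v * a * v⁻¹ * v⁻¹)⁻¹ * (v * a * v⁻¹) * (v * v * a * v⁻¹ * v⁻¹)⁻¹ * (v * a * v⁻¹) := by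
  have hu2 : v * (a * a) * v⁻¹ * (a * a)⁻¹ = (v * a * v⁻¹ * a⁻¹) * (v * a * v⁻¹ * a⁻¹) := by
    have := conj_comm hAv ha (A.inv_mem ha)
    calc v * (a * a) * v⁻¹ * (a * a)⁻¹ = (v * a * v⁻¹) * ((v * a * v⁻¹) * a⁻¹) * a⁻¹ := by simp [mul_assoc]
      _ = (v * a * v⁻¹) * (a⁻¹ * (v * a * v⁻¹)) * a⁻¹ := by rw [this]
      _ = (v * a * v⁻¹ * a⁻¹) * (v * a * v⁻¹ * a⁻¹) := by simp only [mul_assoc]
  have c1 := u_conj_comm hAB hv hAv ha hB
  have c2 := u_conj_comm hAB hv hAv (A.mul_mem ha ha) hB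
  rw [hu2] at c2
  set u := v * a * v⁻¹ * a⁻¹ with hu
  -- b₀, b₁, b₂ commute
  have d01 : Commute b (u * b * u⁻¹) := (commutator_eq_bot_iff_forall.1 c1) b hb _ (conj_mem_conjBy hb u)
  have d02 : Commute b (u * u * b * (u * u)⁻¹) :=
    (commutator_eq_bot_iff_forall.1 c2) b hb _ (conj_mem_conjBy hb (u * u))
  have d12 : Commute (u * b * u⁻¹) (u * u * b * (u * u)⁻¹) := by
    have h1 : u * (b * (u * b * u⁻¹)) * u⁻¹ = u * ((u * b * u⁻¹) * b) * u⁻¹ := by rw [d01.eq]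
    show (u * b * u⁻¹) * (u * u * b * (u * u)⁻¹) = (u * u * b * (u * u)⁻¹) * (u * b * u⁻¹)
    simpa [mul_assoc] using h1
  have hvb : v = b⁻¹ * (u * b * u⁻¹) := hfix.symm
  have hz : v * (v * u * v⁻¹ * u⁻¹) * v⁻¹ = v * u * v⁻¹ * u⁻¹ := by
    have h1 : v * u * v⁻¹ * u⁻¹ = v * (u * v * u⁻¹)⁻¹ := by simp [mul_assoc]
    have h2 : (u * v * u⁻¹) = (u * b * u⁻¹)⁻¹ * (u * u * b * (u * u)⁻¹) := by
      conv_lhs => rw [hvb]
      simp [mul_assoc]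
    have h3 : Commute v (u * v * u⁻¹) := by
      rw [h2, hvb]
      exact ((d01.inv_inv.mul_left (Commute.refl _).inv_right).mul_right (d02.inv_left.mul_left d12))
    rw [h1]
    have h4 : Commute v (v * (u * v * u⁻¹)⁻¹) := (Commute.refl v).mul_right h3.inv_right
    rw [h4.eq, mul_inv_cancel_right]
  -- in terms of `a`
  have hz2 : v * u * v⁻¹ * u⁻¹ = (v * v * a * v⁻¹ * v⁻¹) * (v * a * v⁻¹)⁻¹ * a * (v * a * v⁻¹)⁻¹ := by
    rw [hu]; simp [mul_assoc]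
  rw [hz2] at hz
  have hz3 : v * ((v * v * a * v⁻¹ * v⁻¹) * (v * a * v⁻¹)⁻¹ * a * (v * a * v⁻¹)⁻¹) * v⁻¹ =
      (v * v * v * a * v⁻¹ * v⁻¹ * v⁻¹) * (v * v * a * v⁻¹ * v⁻¹)⁻¹ * (v * a * v⁻¹) *
        (v * v * a * v⁻¹ * v⁻¹)⁻¹ := by simp [mul_assoc]
  rw [hz3] at hz
  set a1 := v * a * v⁻¹
  set a2 := v * v * a * v⁻¹ * v⁻¹
  set a3 := v * v * v * a * v⁻¹ * v⁻¹ * v⁻¹
  calc a = a1 * a2⁻¹ * (a2 * a1⁻¹ * a * a1⁻¹) * a1 := by simp [mul_assoc]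
    _ = a1 * a2⁻¹ * (a3 * a2⁻¹ * a1 * a2⁻¹) * a1 := by rw [← hz]
    _ = a1 * a2⁻¹ * a3 * a2⁻¹ * a1 * a2⁻¹ * a1 := by simp only [mul_assoc]

end setting2

/-- If `b ∈ B` has `b, b², b³ ≠ 1` then some `1 ≠ a ∈ A` lies in the product of three conjugates of `A` different from
`A` and commuting with `A`. -/
theorem exists_mem_sup (hA : ⁅A, A⁆ = ⊥) (hB : ⁅B, B⁆ = ⊥) (hAB : IsRankOnePair A B)
    (hCB : IsRankOnePair C B) (hAC : ⁅A, C⁆ = ⊥) (hne : A ≠ C) {b : G} (hb : b ∈ B) (hb1 : b ≠ 1)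
    (hb2 : b * b ≠ 1) (hb3 : b * b * b ≠ 1) :
    ∃ a ∈ A, a ≠ 1 ∧ ∃ g₁ g₂ g₃ : G, (⁅A, conjBy A g₁⁆ = ⊥ ∧ conjBy A g₁ ≠ A) ∧
      (⁅A, conjBy A g₂⁆ = ⊥ ∧ conjBy A g₂ ≠ A) ∧ (⁅A, conjBy A g₃⁆ = ⊥ ∧ conjBy A g₃ ≠ A) ∧
      a ∈ conjBy A g₁ ⊔ conjBy A g₂ ⊔ conjBy A g₃ := by
  obtain ⟨v, hv, rfl⟩ := triangle_exists_conj hA hB hAB hCB hAC
  obtain ⟨a, ha, ha1, hab⟩ := partner_left hAB hb hb1
  -- replace `v` by `w`
  set w := ww (v * a * v⁻¹ * a⁻¹) b with hw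
  have hwA : conjBy A w = conjBy A v := conjBy_ww hA hv hAC ha hb hab
  have hwB : ∀ x ∈ B, w * x = x * w := fun x hx => ww_comm hB hAB hv hAC ha hb hx
  have hAw : ⁅A, conjBy A w⁆ = ⊥ := by rw [hwA]; exact hAC
  have hnew : conjBy A w ≠ A := by rw [hwA]; exact hne.symm
  have hwa : w * a * w⁻¹ = v * a * v⁻¹ := by
    have h1 : conjBy A (v⁻¹ * w) = A := by
      rw [← conjBy_conjBy, hwA, conjBy_conjBy, inv_mul_cancel, conjBy_one]
    have h2 : ∀ x ∈ B, (v⁻¹ * w) * x = x * (v⁻¹ * w) := by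
      intro x hx
      have h3 : v⁻¹ * x = x * v⁻¹ := by
        rw [inv_mul_eq_iff_eq_mul, ← mul_assoc, hv x hx, mul_inv_cancel_right]
      rw [mul_assoc, hwB x hx, ← mul_assoc, h3, mul_assoc]
    have h3 := centralizes_of_fix hAB h2 h1 ha
    calc w * a * w⁻¹ = v * ((v⁻¹ * w) * a * (v⁻¹ * w)⁻¹) * v⁻¹ := by simp [mul_assoc]
      _ = v * a * v⁻¹ := by rw [h3]
  have hfix : ww (w * a * w⁻¹ * a⁻¹) b = w := by rw [hwa]
  have hrel := relation hA hB hAB hwB hAw ha hb hfix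
  have hw2 : ww (w * a * w⁻¹ * a⁻¹) (b * b) = w * w := by
    rw [ww_mul hB hAB hwB hAw ha hb hb, hfix]
  have hw3 : ww (w * a * w⁻¹ * a⁻¹) (b * b * b) = w * w * w := by
    rw [ww_mul hB hAB hwB hAw ha (B.mul_mem hb hb) hb, hw2, hfix]
  refine ⟨a, ha, ha1, w, w * w, w * w * w, ⟨hAw, hnew⟩, ⟨?_, ?_⟩, ⟨?_, ?_⟩, ?_⟩
  · rw [← hw2]; exact ww_conj_comm hA hB hAB hwB hAw ha (B.mul_mem hb hb)
  · rw [← hw2]; exact conjBy_ww_ne hA hAB hwB hAw hnew ha ha1 (B.mul_mem hb hb) hb2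
  · rw [← hw3]; exact ww_conj_comm hA hB hAB hwB hAw ha (B.mul_mem (B.mul_mem hb hb) hb)
  · rw [← hw3]; exact conjBy_ww_ne hA hAB hwB hAw hnew ha ha1 (B.mul_mem (B.mul_mem hb hb) hb) hb3
  · have m1 : w * a * w⁻¹ ∈ conjBy A w ⊔ conjBy A (w * w) ⊔ conjBy A (w * w * w) :=
      Subgroup.mem_sup_left (Subgroup.mem_sup_left (conj_mem_conjBy ha w))
    have m2 : w * w * a * w⁻¹ * w⁻¹ ∈ conjBy A w ⊔ conjBy A (w * w) ⊔ conjBy A (w * w * w) := by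
      refine Subgroup.mem_sup_left (Subgroup.mem_sup_right ?_)
      have := conj_mem_conjBy ha (w * w)
      simpa [mul_assoc] using this
    have m3 : w * w * w * a * w⁻¹ * w⁻¹ * w⁻¹ ∈ conjBy A w ⊔ conjBy A (w * w) ⊔ conjBy A (w * w * w) := by
      refine Subgroup.mem_sup_right ?_
      have := conj_mem_conjBy ha (w * w * w)
      simpa [mul_assoc] using this
    rw [hrel]
    exact Subgroup.mul_mem _ (Subgroup.mul_mem _ (Subgroup.mul_mem _ (Subgroup.mul_mem _ (Subgroup.mul_mem _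
      (Subgroup.mul_mem _ m1 (Subgroup.inv_mem _ m2)) m3) (Subgroup.inv_mem _ m2)) m1)
      (Subgroup.inv_mem _ m2)) m1

/-- **Triangle theorem**: `A`, `B`, `C` abelian, `(A, B)` and `(C, B)` rank one pairs, `[A, C] = 1`, `A ≠ C`; then
`(A, B)` is special. -/
theorem triangle_special (hA : ⁅A, A⁆ = ⊥) (hB : ⁅B, B⁆ = ⊥) (hAB : IsRankOnePair A B)
    (hCB : IsRankOnePair C B) (hAC : ⁅A, C⁆ = ⊥) (hne : A ≠ C) : IsSpecialRankOnePair A B := by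
  obtain ⟨v, hv, rfl⟩ := triangle_exists_conj hA hB hAB hCB hAC
  exact special_of_conj hA hB hAB hv hAC hne.symm

end Cfsg.Agent.H735
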