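/-
Lines of abstract root subgroups: the special point of a line with respect to a rank one partner, double
transitivity on lines (helper735, section 63).
-/
import Cfsg.Agent.H733.Chain
import Cfsg.Agent.H735.Triangle

set_option autoImplicit false
open Cfsg Cfsg.Agent.H731 Cfsg.Agent.H733

namespace Cfsg.Agent.H735

variable {G : Type*} [Group G] {S : Set (Subgroup G)} {A B C D E P : Subgroup G}

/-- Every member of `S` has a rank one partner. -/
def NoIsolated (S : Set (Subgroup G)) : Prop := ∀ A ∈ S, ∃ B ∈ S, IsRankOnePair A B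

theorem noIsolated_iff : NoIsolated S ↔ ∀ A ∈ S, ¬ IsIsolatedIn (FAdj S) S A := by
  constructor
  · intro h A hA
    exact (not_isIsolatedIn_iff hA).2 (h A hA)
  · intro h A hA
    exact (not_isIsolatedIn_iff hA).1 (h A hA)

variable (hS : IsRootSubgroupSet S) (hNI : NoIsolated S)
include hS hNI

/-- The key computation: `A` and `E` commute, `(A, D)` is a rank one pair, `(E, D)` is in the commutator case and some
`a e` (`a, e ≠ 1`) lies in a member; then `[A, [E, D]] = E`. -/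
theorem line_aux {M : Subgroup G} (hA : A ∈ S) (hD : D ∈ S) (hE : E ∈ S) (hAD : IsRankOnePair A D)
    (hAE : ⁅A, E⁆ = ⊥) (hED : RootCommutatorCase S E D) (hM : M ∈ S) {a e : G} (ha : a ∈ A) (ha1 : a ≠ 1)
    (he : e ∈ E) (he1 : e ≠ 1) (hae : a * e ∈ M) :
    RootCommutatorCase S A ⁅E, D⁆ ∧ ⁅A, ⁅E, D⁆⁆ = E := by
  have cAE := commutator_eq_bot_iff_forall.1 hAE
  have hP := hNI A hA
  -- (i)
  have h1 : ⁅A, ⁅E, D⁆⁆ ≠ ⊥ := by
    intro h1
    rw [commutator_eq_bot_iff_forall] at h1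
    obtain ⟨d, hd, hd1⟩ := member_exists_ne_one hS hD
    have hz : e * d * e⁻¹ * d⁻¹ ∈ ⁅E, D⁆ := comm_mem he hd
    have hz1 : e * d * e⁻¹ * d⁻¹ ≠ 1 := by
      intro h2
      rw [mul_inv_eq_one, mul_inv_eq_iff_eq_mul] at h2
      rcases rcc_commute_elem' hS hD ⟨A, hA, RankOnePair_symm hAD⟩ hED he hd h2 with h3 | h3
      · exact he1 h3
      · exact hd1 h3
    refine central_translate hS hA (RankOnePair_symm hAD) (z := e * d * e⁻¹ * d⁻¹) ?_ hz1 hd hd1
      (hS.conj_mem D hD e) ?_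
    · rw [mem_centralizer_sup]
      exact ⟨fun x hx => rcc_comm_right hED hz hx, fun x hx => (h1 x hx _ hz).symm⟩
    · rw [inv_mul_cancel_right]
      exact conj_mem_conjBy hd e
  -- (ii)
  have h2 : ¬ IsRankOnePair A ⁅E, D⁆ := by
    intro h2
    refine central_translate hS hED.1 h2 (z := e) ?_ he1 ha ha1 hM (by rw [← cAE a ha e he]; exact hae)
    rw [mem_centralizer_sup]
    exact ⟨fun x hx => (cAE x hx e he).symm, fun x hx => (rcc_comm_left hED hx he).symm⟩
  have hAF : RootCommutatorCase S A ⁅E, D⁆ := by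
    rcases hS.pair A hA _ hED.1 with h3 | h3 | h3
    · exact absurd h3 h1
    · exact absurd h3 h2
    · exact h3
  refine ⟨hAF, ?_⟩
  -- (iii)
  obtain ⟨a', ha', ha1', -⟩ : ∃ a' ∈ A, a' ≠ 1 ∧ True := ⟨a, ha, ha1, trivial⟩
  obtain ⟨d, hd, hd1, had⟩ := partner_right hAD ha' ha1'
  set F := ⁅E, D⁆ with hF
  have hf : d * e * d⁻¹ * e⁻¹ ∈ F := by
    rw [hF, Subgroup.commutator_comm]
    exact comm_mem hd he
  set f := d * e * d⁻¹ * e⁻¹ with hfdef
  have hp : a'⁻¹ * f * a' * f⁻¹ ∈ ⁅A, F⁆ := by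
    have := comm_mem (A.inv_mem ha') hf
    rwa [inv_inv] at this
  set p := a'⁻¹ * f * a' * f⁻¹ with hpdef
  have hpA : ∀ x ∈ A, p * x = x * p := fun x hx => rcc_comm_left hAF hp hx
  have hpF : ∀ x ∈ F, p * x = x * p := fun x hx => rcc_comm_right hAF hp hx
  have hfD : ∀ x ∈ D, f * x = x * f := fun x hx => rcc_comm_right hED hf hx
  have hFE : ∀ x ∈ F, ∀ y ∈ E, x * y = y * x := fun x hx y hy => rcc_comm_left hED hx hy
  -- `p e` commutes with `D`
  have hzD : ∀ x ∈ D, (p * e) * x = x * (p * e) := by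
    intro x hx
    have h3 : conjBy D a' = conjBy A d := had.symm
    have h4 : a' * x * a'⁻¹ ∈ conjBy A d := by rw [← h3]; exact conj_mem_conjBy hx a'
    have h5 : ∀ y ∈ conjBy A d, (d * e * d⁻¹) * y = y * (d * e * d⁻¹) := by
      rintro _ ⟨y, hy, rfl⟩
      show (d * e * d⁻¹) * (d * y * d⁻¹) = (d * y * d⁻¹) * (d * e * d⁻¹)
      have h6 := cAE y hy e he
      calc (d * e * d⁻¹) * (d * y * d⁻¹) = d * (e * y) * d⁻¹ := by simp [mul_assoc]
        _ = d * (y * e) * d⁻¹ := by rw [h6]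
        _ = (d * y * d⁻¹) * (d * e * d⁻¹) := by simp [mul_assoc]
    have h6 := h5 _ h4
    -- `a'⁻¹ (d e d⁻¹) a' = p f e`
    have h7 : a'⁻¹ * (d * e * d⁻¹) * a' = f * (p * e) := by
      have h8 : e * a' = a' * e := (cAE a' ha' e he).symm
      calc a'⁻¹ * (d * e * d⁻¹) * a' = a'⁻¹ * f * (e * a') := by rw [hfdef]; simp [mul_assoc]
        _ = a'⁻¹ * f * (a' * e) := by rw [h8]
        _ = (p * f) * e := by rw [hpdef]; simp [mul_assoc]
        _ = f * (p * e) := by rw [hpF f hf, mul_assoc]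
    have h8 : (a'⁻¹ * (d * e * d⁻¹) * a') * x = x * (a'⁻¹ * (d * e * d⁻¹) * a') := by
      calc (a'⁻¹ * (d * e * d⁻¹) * a') * x = a'⁻¹ * ((d * e * d⁻¹) * (a' * x * a'⁻¹)) * a' := by simp [mul_assoc]
        _ = a'⁻¹ * ((a' * x * a'⁻¹) * (d * e * d⁻¹)) * a' := by rw [h6]
        _ = x * (a'⁻¹ * (d * e * d⁻¹) * a') := by simp [mul_assoc]
    rw [h7] at h8
    have h9 : f * ((p * e) * x) = f * (x * (p * e)) := by
      rw [← mul_assoc, h8, ← mul_assoc f x, hfD x hx, mul_assoc x f]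
    exact mul_left_cancel h9
  have hz : p * e ∈ Subgroup.centralizer ((A ⊔ D : Subgroup G) : Set G) := by
    rw [mem_centralizer_sup]
    refine ⟨fun x hx => ?_, hzD⟩
    rw [mul_assoc, ← cAE x hx e he, ← mul_assoc, hpA x hx, mul_assoc]
  obtain ⟨f', hf', hmem⟩ := mul_mem_conjBy hAF ha ha1 (Subgroup.inv_mem _ hp)
  rw [mem_conjBy] at hmem
  have hz1 : p * e = 1 := by
    by_contra hz1
    refine central_translate hS hD hAD hz hz1 hmem ?_ (hS.conj_mem M hM f'⁻¹) ?_
    · intro h3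
      have h4 : a * p⁻¹ = 1 := by
        have : a * p⁻¹ = f' * (f'⁻¹ * (a * p⁻¹) * f') * f'⁻¹ := by simp [mul_assoc]
        rw [this, h3]; simp
      have h5 : a ∈ A ⊓ ⁅A, F⁆ := ⟨ha, by rw [mul_inv_eq_one.1 h4]; exact hp⟩
      rw [rcc_inf_commutator hS hA hP hAF] at h5
      exact ha1 (Subgroup.mem_bot.1 h5)
    · rw [mem_conjBy_inv]
      have h3 : (p * e) * f'⁻¹ = f'⁻¹ * (p * e) := by
        rw [mul_assoc, ← hFE _ (F.inv_mem hf') e he, ← mul_assoc, hpF _ (F.inv_mem hf'), mul_assoc]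
      have h4 : f' * (p * e * (f'⁻¹ * (a * p⁻¹) * f')) * f'⁻¹ = a * e := by
        have h5 : a * p⁻¹ = p⁻¹ * a := by
          rw [eq_inv_mul_iff_mul_eq, ← mul_assoc, hpA a ha, mul_inv_cancel_right]
        calc f' * (p * e * (f'⁻¹ * (a * p⁻¹) * f')) * f'⁻¹ = f' * ((p * e) * f'⁻¹) * (a * p⁻¹) := by
              simp [mul_assoc]
          _ = (p * e) * (a * p⁻¹) := by rw [h3]; simp [mul_assoc]
          _ = p * (e * (p⁻¹ * a)) := by rw [h5, mul_assoc]
          _ = p * e * p⁻¹ * a := by simp [mul_assoc]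
          _ = a * e := by
            have h6 : e * p⁻¹ = p⁻¹ * e := by
              have h7 : ∀ y ∈ ⁅A, F⁆, e * y = y * e := by
                have h8 : ⁅A, F⁆ ≤ Subgroup.centralizer ({e} : Set G) := by
                  rw [Subgroup.commutator_le]
                  intro x hx y hy
                  rw [commutatorElement_def, Subgroup.mem_centralizer_iff]
                  intro w hw
                  rw [Set.mem_singleton_iff] at hw
                  rw [hw]
                  have c1 : Commute e x := (cAE x hx e he).symm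
                  have c2 : Commute e y := (hFE y hy e he).symm
                  exact ((c1.mul_right c2).mul_right c1.inv_right).mul_right c2.inv_right
                intro y hy
                exact Subgroup.mem_centralizer_iff.1 (h8 hy) e rfl
              exact h7 _ (Subgroup.inv_mem _ hp)
            rw [mul_assoc p, h6, mul_inv_cancel_left, cAE a ha e he]
      rw [h4]
      exact hae
  obtain ⟨E', hE', hEE'⟩ := hNI E hE
  refine (eq_of_mem_mem hS hE hE' hEE' hAF.1 he he1 ?_).symm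
  rw [← inv_inv e, ← eq_inv_of_mul_eq_one_left hz1]
  exact Subgroup.inv_mem _ hp

omit hNI in
theorem line_comm (hB : B ∈ linePartners S A) (hA : A ∈ S) : ⁅A ⊔ B, A ⊔ B⁆ = ⊥ := by
  have h1 := member_commutator_self hS hA
  have h2 := member_commutator_self hS hB.1.1
  have h3 := hB.1.2.2
  exact comm_sup (comm_sup' h1 (by rw [Subgroup.commutator_comm]; exact h3)) (comm_sup' h3 h2)

theorem line_exists_mem (hB : B ∈ linePartners S A) (hA : A ∈ S) (hE : E ∈ S) (hEl : E ≤ A ⊔ B) (hne : E ≠ A)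
    {a e : G} (ha : a ∈ A) (ha1 : a ≠ 1) (he : e ∈ E) : ∃ M ∈ membersIn S (A ⊔ B), a * e ∈ M := by
  refine hB.2.2.1 (a * e) (Subgroup.mul_mem _ (Subgroup.mem_sup_left ha) (hEl he)) ?_
  intro h1
  obtain ⟨A', hA', hAA'⟩ := hNI A hA
  apply hne
  refine (eq_of_mem_mem hS hA hA' hAA' hE ha ha1 ?_).symm
  rw [eq_inv_of_mul_eq_one_left h1]
  exact E.inv_mem he

/-- **Special point of a line**: for a rank one pair `(A, D)` and a line `AB` there is a point `P ≠ A` of the line
with `F = [P, D]` a member, `[A, F] = P` and `AB = AP`. -/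
theorem line_point (hA : A ∈ S) (hD : D ∈ S) (hAD : IsRankOnePair A D) (hB : B ∈ linePartners S A) :
    ∃ P ∈ membersIn S (A ⊔ B), P ≠ A ∧ RootCommutatorCase S P D ∧ RootCommutatorCase S A ⁅P, D⁆ ∧
      ⁅A, ⁅P, D⁆⁆ = P ∧ A ⊔ B = A ⊔ P := by
  have cL := commutator_eq_bot_iff_forall.1 (line_comm hS hB hA)
  -- no point of the line commutes with `D`
  have hno : ∀ E ∈ membersIn S (A ⊔ B), E ≠ A → ⁅E, D⁆ ≠ ⊥ := by
    rintro E ⟨hE, hEl⟩ hne h1
    rw [commutator_eq_bot_iff_forall] at h1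
    obtain ⟨a, ha, ha1⟩ := member_exists_ne_one hS hA
    obtain ⟨e, he, he1⟩ := member_exists_ne_one hS hE
    obtain ⟨M, hM, hM'⟩ := line_exists_mem hS hNI hB hA hE hEl hne ha ha1 he
    have h2 := cL a (Subgroup.mem_sup_left ha) e (hEl he)
    rw [h2] at hM'
    refine central_translate hS hD hAD (z := e) ?_ he1 ha ha1 hM.1 hM'
    rw [mem_centralizer_sup]
    exact ⟨fun x hx => (cL x (Subgroup.mem_sup_left hx) e (hEl he)).symm, fun x hx => h1 e he x hx⟩
  have haux : ∀ E ∈ membersIn S (A ⊔ B), E ≠ A → RootCommutatorCase S E D →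
      RootCommutatorCase S A ⁅E, D⁆ ∧ ⁅A, ⁅E, D⁆⁆ = E := by
    rintro E ⟨hE, hEl⟩ hne h1
    obtain ⟨a, ha, ha1⟩ := member_exists_ne_one hS hA
    obtain ⟨e, he, he1⟩ := member_exists_ne_one hS hE
    obtain ⟨M, hM, hM'⟩ := line_exists_mem hS hNI hB hA hE hEl hne ha ha1 he
    refine line_aux hS hNI hA hD hE hAD ?_ h1 hM.1 ha ha1 he he1 hM'
    rw [commutator_eq_bot_iff_forall]
    exact fun x hx y hy => cL x (Subgroup.mem_sup_left hx) y (hEl hy)
  have hBS := hB.1.1
  have hBne := hB.1.2.1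
  have hBm : B ∈ membersIn S (A ⊔ B) := ⟨hBS, le_sup_right⟩
  rcases hS.pair B hBS D hD with h1 | h1 | h1
  · exact absurd h1 (hno B hBm hBne)
  · -- `(B, D)` a rank one pair
    obtain ⟨d, hd, hd1⟩ := member_exists_ne_one hS hD
    obtain ⟨a, ha, ha1, had⟩ := partner_left hAD hd hd1
    obtain ⟨b, hb, hb1, hbd⟩ := partner_left h1 hd hd1
    have h2 : ⁅D, conjBy D (a⁻¹ * b)⁆ = ⊥ := by
      have h3 : ⁅conjBy A d, conjBy B d⁆ = ⊥ := commutator_conjBy_eq_bot_iff.2 hB.1.2.2
      have h4 : conjBy D b = conjBy (conjBy D (a⁻¹ * b)) a := by rw [conjBy_conjBy, mul_inv_cancel_left]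
      rw [had, hbd, h4] at h3
      exact commutator_conjBy_eq_bot_iff.1 h3
    have hab1 : a⁻¹ * b ≠ 1 := by
      intro h3
      apply hBne
      refine eq_of_mem_mem hS hBS hD h1 hA hb hb1 ?_
      rw [← inv_mul_eq_one.1 h3]; exact ha
    obtain ⟨E, hE, hEab⟩ := hB.2.2.1 (a⁻¹ * b)
      (Subgroup.mul_mem _ (Subgroup.mem_sup_left (A.inv_mem ha)) (Subgroup.mem_sup_right hb)) hab1
    have hEne : E ≠ A := by
      rintro rfl
      apply hBne
      refine eq_of_mem_mem hS hBS hD h1 hA hb hb1 ?_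
      have := E.mul_mem ha hEab
      simpa using this
    have hED : RootCommutatorCase S E D := by
      rcases hS.pair E hE.1 D hD with h3 | h3 | h3
      · exact absurd h3 (hno E hE hEne)
      · exfalso
        have h4 := RankOnePair_symm h3
        have h5 : conjBy D (a⁻¹ * b) ∈ unipotentSubgroups D E :=
          conjBy_mem_unipotentSubgroups (left_mem_unipotentSubgroups D E) (Subgroup.mem_sup_right hEab)
        have h6 : D ≠ conjBy D (a⁻¹ * b) := fun h7 => hab1 (rankOne_eq_one h3 hEab h7.symm)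
        exact rankOne_not_commute (rankOne_pair_of_mem h4 (left_mem_unipotentSubgroups D E) h5 h6) h2
      · exact h3
    obtain ⟨h3, h4⟩ := haux E hE hEne hED
    refine ⟨E, hE, hEne, hED, h3, h4, ?_⟩
    apply le_antisymm
    · refine sup_le le_sup_left ?_
      have hpart := rcc_partition hS hA (hNI A hA) h3
      rw [h4] at hpart
      have hbm : b ∈ A ⊔ E := by
        have h5 : b = a * (a⁻¹ * b) := by rw [mul_inv_cancel_left]
        rw [h5]
        exact Subgroup.mul_mem_sup ha hEab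
      obtain ⟨E', hE', hbE'⟩ := hpart.2.1 b hbm hb1
      rw [eq_of_mem_mem hS hBS hD h1 hE'.1 hb hb1 hbE']
      exact hE'.2
    · exact sup_le le_sup_left hE.2
  · obtain ⟨h2, h3⟩ := haux B hBm hBne h1
    exact ⟨B, hBm, hBne, h1, h2, h3, rfl⟩

/-- The points of the line different from the special point are rank one partners of `D` and conjugate to `A` by an
element of `[P, D]`. -/
theorem line_other (hA : A ∈ S) (hAD : IsRankOnePair A D) (hPD : RootCommutatorCase S P D)
    (hAF : RootCommutatorCase S A ⁅P, D⁆) (hAP : ⁅A, ⁅P, D⁆⁆ = P) (hE : E ∈ membersIn S (A ⊔ P)) (hne : E ≠ P) :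
    (∃ f ∈ ⁅P, D⁆, E = conjBy A f) ∧ IsRankOnePair E D := by
  have h1 := rcc_membersIn hS hA (hNI A hA) hAF
  rw [hAP] at h1
  rw [h1] at hE
  rcases hE with ⟨f, hf, rfl⟩ | hE
  · refine ⟨⟨f, hf, rfl⟩, ?_⟩
    have h2 : conjBy D f = D := conjBy_of_commute fun x hx => rcc_comm_right hPD hf hx
    have h3 := IsRankOnePair_conj hAD f
    rwa [h2] at h3
  · exact absurd hE hne

end Cfsg.Agent.H735
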