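/-
Abstract root subgroups: [A, B] = C, [D, C] = A; the natural module AC of the rank one group ⟨B, D⟩ (helper735, S5036).
-/
import Cfsg.Agent.H733.Chain

set_option autoImplicit false
set_option linter.unusedSectionVars false
set_option linter.unusedVariables false
open Cfsg Cfsg.Agent.H731 Cfsg.Agent.H733

namespace Cfsg.Agent.H735

variable {G : Type*} [Group G] {S : Set (Subgroup G)} {A B C D E : Subgroup G}

theorem commutator_le_centralizer {X : Subgroup G} {g : G} (hA : ∀ a ∈ A, g * a = a * g) (hB : ∀ b ∈ B, g * b = b * g)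
    (hX : X ≤ ⁅A, B⁆) : ∀ x ∈ X, g * x = x * g := by
  have h1 : ⁅A, B⁆ ≤ Subgroup.centralizer ({g} : Set G) := by
    rw [Subgroup.commutator_le]
    intro x hx y hy
    rw [commutatorElement_def, Subgroup.mem_centralizer_iff]
    intro w hw
    rw [Set.mem_singleton_iff] at hw
    rw [hw]
    have c1 : Commute g x := hA x hx
    have c2 : Commute g y := hB y hy
    exact ((c1.mul_right c2).mul_right c1.inv_right).mul_right c2.inv_right
  intro x hx
  exact Subgroup.mem_centralizer_iff.1 (h1 (hX hx)) g rfl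

section nat

variable (hS : IsRootSubgroupSet S) (hA : A ∈ S) (hB : B ∈ S) (h : RootCommutatorCase S A B) (hD : D ∈ S)
  (hDC : ⁅D, ⁅A, B⁆⁆ = A)

include hS hA hD hDC h in
theorem nat_rcc : RootCommutatorCase S ⁅A, B⁆ D ∧ ⁅⁅A, B⁆, D⁆ = A := by
  have h1 : ⁅⁅A, B⁆, D⁆ = A := by rw [Subgroup.commutator_comm]; exact hDC
  exact ⟨(commutator_mem_iff hS h.1 hD).1 (by rw [h1]; exact hA), h1⟩

include hS hA hB hD hDC h in
theorem nat_inf : A ⊓ ⁅A, B⁆ = ⊥ := by
  rw [Subgroup.eq_bot_iff_forall]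
  rintro x ⟨hx, hx'⟩
  by_contra hx1
  apply rcc_not_commute hS h
  rw [← h.2.2.1 x hx hx1, Subgroup.closure_eq_bot_iff]
  rintro _ ⟨b, hb, rfl⟩
  show x * b * x⁻¹ * b⁻¹ = 1
  rw [rcc_comm_right h hx' hb]
  simp

include hS hA hB hD hDC h in
/-- The centralizer of `D` in `N = AC` is `A`. -/
theorem nat_centralizer_D {x : G} (hx : x ∈ A ⊔ ⁅A, B⁆) (hxD : ∀ d ∈ D, x * d = d * x) : x ∈ A := by
  obtain ⟨h1, h2⟩ := nat_rcc hS hA h hD hDC
  obtain ⟨a, ha, c, hc, rfl⟩ := (mem_sup_commutator h).1 hx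
  have hcD : ∀ d ∈ D, c * d = d * c := by
    intro d hd
    have h3 := hxD d hd
    have h4 : a * d = d * a := by
      rw [← h2] at ha
      exact rcc_comm_right h1 ha hd
    have h5 : a * (c * d) = a * (d * c) := by
      rw [← mul_assoc, h3, ← mul_assoc, ← h4, mul_assoc]
    exact mul_left_cancel h5
  have hc1 : c = 1 := by
    by_contra hc1
    apply rcc_not_commute hS h1
    rw [← h1.2.2.1 c hc hc1, Subgroup.closure_eq_bot_iff]
    rintro _ ⟨d, hd, rfl⟩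
    show c * d * c⁻¹ * d⁻¹ = 1
    rw [hcD d hd]
    simp
  rw [hc1, mul_one]
  exact ha

include hS hA hB hD hDC h in
/-- The centralizer of `B` in `N = AC` is `C`. -/
theorem nat_centralizer_B {x : G} (hx : x ∈ A ⊔ ⁅A, B⁆) (hxB : ∀ b ∈ B, x * b = b * x) : x ∈ ⁅A, B⁆ := by
  obtain ⟨a, ha, c, hc, rfl⟩ := (mem_sup_commutator h).1 hx
  have haB : ∀ b ∈ B, a * b = b * a := by
    intro b hb
    have h3 := hxB b hb
    have h4 : c * b = b * c := rcc_comm_right h hc hb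
    have h5 : (a * b) * c = (b * a) * c := by
      rw [mul_assoc, ← h4, ← mul_assoc, h3, mul_assoc]
    exact mul_right_cancel h5
  have ha1 : a = 1 := by
    by_contra ha1
    apply rcc_not_commute hS h
    rw [← h.2.2.1 a ha ha1, Subgroup.closure_eq_bot_iff]
    rintro _ ⟨b, hb, rfl⟩
    show a * b * a⁻¹ * b⁻¹ = 1
    rw [haB b hb]
    simp
  rw [ha1, one_mul]
  exact hc

include hS hA hB hD hDC h in
theorem nat_conj_B {b : G} (hb : b ∈ B) : conjBy (A ⊔ ⁅A, B⁆) b = A ⊔ ⁅A, B⁆ := rcc_conjBy_sup h hb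

include hS hA hB hD hDC h in
theorem nat_conj_D {d : G} (hd : d ∈ D) : conjBy (A ⊔ ⁅A, B⁆) d = A ⊔ ⁅A, B⁆ := by
  obtain ⟨h1, h2⟩ := nat_rcc hS hA h hD hDC
  have h3 := rcc_conjBy_sup h1 hd
  rw [h2] at h3
  rw [sup_comm]
  exact h3

include hS hA hB hD hDC h in
theorem nat_rankOne : IsRankOnePair B D := by
  obtain ⟨h1, h2⟩ := nat_rcc hS hA h hD hDC
  have hDA : ∀ a ∈ A, ∀ d ∈ D, a * d = d * a := by
    intro a ha d hd
    rw [← h2] at ha
    exact rcc_comm_right h1 ha hd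
  rcases hS.pair B hB D hD with h3 | h3 | h3
  · exfalso
    rw [commutator_eq_bot_iff_forall] at h3
    apply rcc_not_commute hS h
    rw [commutator_eq_bot_iff_forall]
    intro a ha b hb
    exact (commutator_le_centralizer (A := D) (B := ⁅A, B⁆) (X := A) (g := b) (fun d hd => h3 b hb d hd)
      (fun c hc => (rcc_comm_right h hc hb).symm) hDC.ge a ha).symm
  · exact h3
  · exfalso
    -- `F = [B, D]` normalizes `A`
    have hFN : ∀ x ∈ ⁅B, D⁆, conjBy (A ⊔ ⁅A, B⁆) x = A ⊔ ⁅A, B⁆ := by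
      intro x hx
      exact conjBy_eq_of_mem_sup (fun b hb => nat_conj_B hS hA hB h hD hDC hb)
        (fun d hd => nat_conj_D hS hA hB h hD hDC hd) (Subgroup.commutator_le_sup B D hx)
    have hFA : ∀ x ∈ ⁅B, D⁆, conjBy A x ≤ A := by
      rintro x hx _ ⟨a, ha, rfl⟩
      show x * a * x⁻¹ ∈ A
      refine nat_centralizer_D hS hA hB h hD hDC ?_ ?_
      · rw [← hFN x hx]
        exact conj_mem_conjBy (Subgroup.mem_sup_left ha) x
      · intro d hd
        have h4 : x * d = d * x := rcc_comm_right h3 hx hd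
        have h5 : x⁻¹ * d = d * x⁻¹ := by
          rw [inv_mul_eq_iff_eq_mul, ← mul_assoc, h4, mul_inv_cancel_right]
        calc x * a * x⁻¹ * d = x * (a * (x⁻¹ * d)) := by simp only [mul_assoc]
          _ = x * ((a * d) * x⁻¹) := by rw [h5, ← mul_assoc a]
          _ = (x * d) * a * x⁻¹ := by rw [hDA a ha d hd]; simp only [mul_assoc]
          _ = d * (x * a * x⁻¹) := by rw [h4]; simp only [mul_assoc]
    have hcomm : ∀ a ∈ A, ∀ x ∈ ⁅B, D⁆, a * x = x * a := by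
      rcases hS.pair A hA _ h3.1 with h4 | h4 | h4
      · rwa [commutator_eq_bot_iff_forall] at h4
      · exfalso
        obtain ⟨x, hx, hx1⟩ := rankOne_exists_right h4
        have h5 : conjBy A x = A := by
          apply le_antisymm (hFA x hx)
          have h6 := hFA x⁻¹ (Subgroup.inv_mem _ hx)
          rw [← conjBy_le_conjBy (g := x), conjBy_conjBy, mul_inv_cancel, conjBy_one] at h6
          exact h6
        exact hx1 (rankOne_eq_one' h4 hx h5)
      · exfalso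
        have h5 : ⁅A, ⁅B, D⁆⁆ ≤ A := by
          rw [Subgroup.commutator_le]
          intro a ha x hx
          rw [commutatorElement_def]
          have h6 : x * a⁻¹ * x⁻¹ ∈ A := hFA x hx (conj_mem_conjBy (A.inv_mem ha) x)
          have h7 := A.mul_mem ha h6
          simpa [mul_assoc] using h7
        obtain ⟨y, hy, hy1⟩ := member_exists_ne_one hS h4.1
        apply rcc_not_commute hS h4
        rw [← h4.2.2.1 y (h5 hy) hy1, Subgroup.closure_eq_bot_iff]
        rintro _ ⟨x, hx, rfl⟩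
        show y * x * y⁻¹ * x⁻¹ = 1
        rw [rcc_comm_right h4 hy hx]
        simp
    -- then `D` commutes with `b a b⁻¹`
    have h6 : ∀ a ∈ A, ∀ b ∈ B, ∀ d ∈ D, (b * a * b⁻¹) * d = d * (b * a * b⁻¹) := by
      intro a ha b hb d hd
      have hx : b⁻¹ * d * b * d⁻¹ ∈ ⁅B, D⁆ := by
        have := comm_mem (B.inv_mem hb) hd
        rwa [inv_inv] at this
      set x := b⁻¹ * d * b * d⁻¹ with hxdef
      have h7 : b⁻¹ * d * b = x * d := by rw [hxdef]; simp [mul_assoc]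
      have h8 : a * (x * d) = (x * d) * a := by
        have c1 : Commute a x := hcomm a ha x hx
        have c2 : Commute a d := hDA a ha d hd
        exact c1.mul_right c2
      rw [← h7] at h8
      calc (b * a * b⁻¹) * d = b * (a * (b⁻¹ * d * b)) * b⁻¹ := by simp [mul_assoc]
        _ = b * ((b⁻¹ * d * b) * a) * b⁻¹ := by rw [h8]
        _ = d * (b * a * b⁻¹) := by simp [mul_assoc]
    apply rcc_not_commute hS h1
    rw [commutator_eq_bot_iff_forall]
    intro c hc d hd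
    have h9 : ⁅A, B⁆ ≤ Subgroup.centralizer ({d} : Set G) := by
      rw [Subgroup.commutator_le]
      intro a ha b hb
      rw [commutatorElement_def, Subgroup.mem_centralizer_iff]
      intro w hw
      rw [Set.mem_singleton_iff] at hw
      rw [hw]
      have c1 : Commute d a := (hDA a ha d hd).symm
      have c2 : Commute d (b * a⁻¹ * b⁻¹) := (h6 a⁻¹ (A.inv_mem ha) b hb d hd).symm
      have c3 := c1.mul_right c2
      have e : a * b * a⁻¹ * b⁻¹ = a * (b * a⁻¹ * b⁻¹) := by simp [mul_assoc]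
      rw [e]
      exact c3
    exact (Subgroup.mem_centralizer_iff.1 (h9 hc) d rfl).symm

include hS hA hB hD hDC h in
theorem nat_conj {x : G} (hx : x ∈ B ⊔ D) : conjBy (A ⊔ ⁅A, B⁆) x = A ⊔ ⁅A, B⁆ :=
  conjBy_eq_of_mem_sup (fun b hb => nat_conj_B hS hA hB h hD hDC hb)
    (fun d hd => nat_conj_D hS hA hB h hD hDC hd) hx

include hS hA hB hD hDC h in
/-- `[N, B] = C`. -/
theorem nat_commutator_B : ⁅A ⊔ ⁅A, B⁆, B⁆ = ⁅A, B⁆ := by
  apply le_antisymm
  · refine commutator_sup_le' le_rfl ?_ ?_ ?_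
    · have : ⁅⁅A, B⁆, B⁆ = ⊥ := commutator_eq_bot_iff_forall.2 fun x hx y hy => rcc_comm_right h hx hy
      rw [this]; exact bot_le
    · exact le_normalizer_of_comm fun a ha c hc => (rcc_comm_left h hc ha).symm
    · exact Subgroup.le_normalizer
  · exact Subgroup.commutator_mono le_sup_left le_rfl

include hS hA hB hD hDC h in
/-- `[N, D] = A`. -/
theorem nat_commutator_D : ⁅A ⊔ ⁅A, B⁆, D⁆ = A := by
  obtain ⟨h1, h2⟩ := nat_rcc hS hA h hD hDC
  have h3 := commutator_sup_le' (A := ⁅A, B⁆) (B := ⁅⁅A, B⁆, D⁆) (H := D) (K := ⁅⁅A, B⁆, D⁆) le_rfl ?_ ?_ ?_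
  · rw [h2] at h3
    apply le_antisymm
    · rw [sup_comm]; exact h3
    · conv_lhs => rw [← h2]
      exact Subgroup.commutator_mono le_sup_right le_rfl
  · have : ⁅⁅⁅A, B⁆, D⁆, D⁆ = ⊥ := commutator_eq_bot_iff_forall.2 fun x hx y hy => rcc_comm_right h1 hx hy
    rw [this]; exact bot_le
  · exact le_normalizer_of_comm fun a ha c hc => (rcc_comm_left h1 hc ha).symm
  · exact Subgroup.le_normalizer

include hS hA hB hD hDC h in
theorem nat_commutator_conj {Y : Subgroup G} {x : G} (hx : x ∈ B ⊔ D) :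
    ⁅A ⊔ ⁅A, B⁆, conjBy Y x⁆ = conjBy ⁅A ⊔ ⁅A, B⁆, Y⁆ x := by
  rw [conjBy_commutator, nat_conj hS hA hB h hD hDC hx]

include hS hA hB hD hDC h in
theorem nat_orbit_A (E : Subgroup G) : (∃ x ∈ B ⊔ D, E = conjBy A x) ↔
    ∃ Y ∈ unipotentSubgroups B D, E = ⁅A ⊔ ⁅A, B⁆, Y⁆ := by
  have hBD := nat_rankOne hS hA hB h hD hDC
  constructor
  · rintro ⟨x, hx, rfl⟩
    refine ⟨conjBy D x, conjBy_mem_unipotentSubgroups (right_mem_unipotentSubgroups hBD) hx, ?_⟩
    rw [nat_commutator_conj hS hA hB h hD hDC hx, nat_commutator_D hS hA hB h hD hDC]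
  · rintro ⟨Y, hY, rfl⟩
    rw [unipotentSubgroups_symm hBD] at hY
    obtain ⟨x, hx, rfl⟩ := hY
    rw [sup_comm] at hx
    exact ⟨x, hx, by rw [nat_commutator_conj hS hA hB h hD hDC hx, nat_commutator_D hS hA hB h hD hDC]⟩

include hS hA hB hD hDC h in
theorem nat_orbit_C (E : Subgroup G) : (∃ x ∈ B ⊔ D, E = conjBy ⁅A, B⁆ x) ↔
    ∃ Y ∈ unipotentSubgroups B D, E = ⁅A ⊔ ⁅A, B⁆, Y⁆ := by
  have hBD := nat_rankOne hS hA hB h hD hDC
  constructor
  · rintro ⟨x, hx, rfl⟩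
    refine ⟨conjBy B x, conjBy_mem_unipotentSubgroups (left_mem_unipotentSubgroups B D) hx, ?_⟩
    rw [nat_commutator_conj hS hA hB h hD hDC hx, nat_commutator_B hS hA hB h hD hDC]
  · rintro ⟨Y, ⟨x, hx, rfl⟩, rfl⟩
    exact ⟨x, hx, by rw [nat_commutator_conj hS hA hB h hD hDC hx, nat_commutator_B hS hA hB h hD hDC]⟩

include hS hA hB hD hDC h in
theorem nat_inf_of_ne {Y Y' : Subgroup G} (hY : Y ∈ unipotentSubgroups B D) (hY' : Y' ∈ unipotentSubgroups B D)
    (hne : Y ≠ Y') : ⁅A ⊔ ⁅A, B⁆, Y⁆ ⊓ ⁅A ⊔ ⁅A, B⁆, Y'⁆ = ⊥ := by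
  obtain ⟨x, hx, rfl, rfl⟩ := rankOne_exists_conj_pair (nat_rankOne hS hA hB h hD hDC) hY hY' hne
  rw [nat_commutator_conj hS hA hB h hD hDC hx, nat_commutator_conj hS hA hB h hD hDC hx,
    nat_commutator_B hS hA hB h hD hDC, nat_commutator_D hS hA hB h hD hDC, ← conjBy_inf, inf_comm,
    nat_inf hS hA hB h hD hDC, conjBy_bot]

end nat

/-- S5036. -/
theorem nat_main (hS : IsRootSubgroupSet S) (hA : A ∈ S) (hB : B ∈ S) (hC : ⁅A, B⁆ ∈ S) (hD : D ∈ S)
    (hDC : ⁅D, ⁅A, B⁆⁆ = A) :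
    IsRankOnePair B D ∧
    {E | ∃ x ∈ B ⊔ D, E = conjBy A x} = {E | ∃ x ∈ B ⊔ D, E = conjBy ⁅A, B⁆ x} ∧
    {E | ∃ x ∈ B ⊔ D, E = conjBy A x} = (fun b : G => conjBy A b) '' (B : Set G) ∪ {⁅A, B⁆} ∧
    {E | ∃ x ∈ B ⊔ D, E = conjBy A x} = (fun d : G => conjBy ⁅A, B⁆ d) '' (D : Set G) ∪ {A} ∧
    IsSubgroupPartition (A ⊔ ⁅A, B⁆) {E | ∃ x ∈ B ⊔ D, E = conjBy A x} ∧
    ∀ x ∈ (B ⊔ D) ⊓ Subgroup.centralizer ((A ⊔ ⁅A, B⁆ : Subgroup G) : Set G), ∀ y ∈ B ⊔ D, x * y = y * x := by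
  have h := (commutator_mem_iff hS hA hB).1 hC
  have hBD := nat_rankOne hS hA hB h hD hDC
  have hoA := nat_orbit_A hS hA hB h hD hDC
  have hoC := nat_orbit_C hS hA hB h hD hDC
  have hnb := fun Y => rankOne_mem_unipotent_iff hBD (C := Y)
  have hnd := fun Y => rankOne_mem_unipotent_iff' hBD (C := Y)
  have eB : {E | ∃ x ∈ B ⊔ D, E = conjBy A x} = (fun b : G => conjBy A b) '' (B : Set G) ∪ {⁅A, B⁆} := by
    ext E
    simp only [Set.mem_ofPred_eq, Set.mem_union, Set.mem_image, Set.mem_singleton_iff, SetLike.mem_coe]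
    rw [hoA E]
    constructor
    · rintro ⟨Y, hY, rfl⟩
      rcases (hnb Y).1 hY with rfl | ⟨b, hb, rfl⟩
      · right; exact nat_commutator_B hS hA hB h hD hDC
      · left
        exact ⟨b, hb, by rw [nat_commutator_conj hS hA hB h hD hDC (Subgroup.mem_sup_left hb),
          nat_commutator_D hS hA hB h hD hDC]⟩
    · rintro (⟨b, hb, rfl⟩ | rfl)
      · exact ⟨conjBy D b, (hnb _).2 (Or.inr ⟨b, hb, rfl⟩), by
          rw [nat_commutator_conj hS hA hB h hD hDC (Subgroup.mem_sup_left hb),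
          nat_commutator_D hS hA hB h hD hDC]⟩
      · exact ⟨B, left_mem_unipotentSubgroups B D, (nat_commutator_B hS hA hB h hD hDC).symm⟩
  have eD : {E | ∃ x ∈ B ⊔ D, E = conjBy A x} = (fun d : G => conjBy ⁅A, B⁆ d) '' (D : Set G) ∪ {A} := by
    ext E
    simp only [Set.mem_ofPred_eq, Set.mem_union, Set.mem_image, Set.mem_singleton_iff, SetLike.mem_coe]
    rw [hoA E]
    constructor
    · rintro ⟨Y, hY, rfl⟩
      rcases (hnd Y).1 hY with rfl | ⟨b, hb, rfl⟩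
      · right; exact nat_commutator_D hS hA hB h hD hDC
      · left
        exact ⟨b, hb, by rw [nat_commutator_conj hS hA hB h hD hDC (Subgroup.mem_sup_right hb),
          nat_commutator_B hS hA hB h hD hDC]⟩
    · rintro (⟨b, hb, rfl⟩ | rfl)
      · exact ⟨conjBy B b, (hnd _).2 (Or.inr ⟨b, hb, rfl⟩), by
          rw [nat_commutator_conj hS hA hB h hD hDC (Subgroup.mem_sup_right hb),
          nat_commutator_B hS hA hB h hD hDC]⟩
      · exact ⟨D, right_mem_unipotentSubgroups hBD, (nat_commutator_D hS hA hB h hD hDC).symm⟩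
  refine ⟨hBD, ?_, eB, eD, ⟨?_, ?_, ?_⟩, ?_⟩
  · ext E
    simp only [Set.mem_ofPred_eq]
    rw [hoA E, hoC E]
  · rintro _ ⟨x, hx, rfl⟩
    rw [← nat_conj hS hA hB h hD hDC hx]
    exact conjBy_le_conjBy.2 le_sup_left
  · intro x hx hx1
    rw [eB]
    obtain ⟨a, ha, c, hc, rfl⟩ := (mem_sup_commutator h).1 hx
    by_cases ha1 : a = 1
    · refine ⟨⁅A, B⁆, Or.inr rfl, ?_⟩
      rw [ha1, one_mul]; exact hc
    · obtain ⟨b, hb, hab⟩ := mul_mem_conjBy h ha ha1 hc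
      exact ⟨conjBy A b, Or.inl ⟨b, hb, rfl⟩, hab⟩
  · intro E hE F hF hne
    obtain ⟨Y, hY, rfl⟩ := (hoA E).1 hE
    obtain ⟨Y', hY', rfl⟩ := (hoA F).1 hF
    exact nat_inf_of_ne hS hA hB h hD hDC hY hY' (fun h1 => hne (by rw [h1]))
  · rintro x ⟨hx, hxN⟩ y hy
    have hx' : x ∈ Subgroup.centralizer ((B ⊔ D : Subgroup G) : Set G) := by
      refine rankOne_centralizes_of_fix hBD hx fun Y hY => ?_
      by_contra hne
      have h1 := nat_inf_of_ne hS hA hB h hD hDC (conjBy_mem_unipotentSubgroups hY hx) hY hne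
      have h2 : conjBy ⁅A ⊔ ⁅A, B⁆, Y⁆ x = ⁅A ⊔ ⁅A, B⁆, Y⁆ := by
        have hle : ⁅A ⊔ ⁅A, B⁆, Y⁆ ≤ A ⊔ ⁅A, B⁆ := by
          obtain ⟨z, hz, hz'⟩ := (hoA ⁅A ⊔ ⁅A, B⁆, Y⁆).2 ⟨Y, hY, rfl⟩
          rw [hz', ← nat_conj hS hA hB h hD hDC hz]
          exact conjBy_le_conjBy.2 le_sup_left
        refine conjBy_of_commute fun n hn => ?_
        exact ((Subgroup.mem_centralizer_iff.1 hxN) n (hle hn)).symm
      rw [nat_commutator_conj hS hA hB h hD hDC hx, h2, inf_idem] at h1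
      obtain ⟨z, hz, hz'⟩ := (hoA ⁅A ⊔ ⁅A, B⁆, Y⁆).2 ⟨Y, hY, rfl⟩
      rw [hz', conjBy_eq_bot] at h1
      exact hS.ne_bot A hA h1
    exact (Subgroup.mem_centralizer_iff.1 hx' y hy).symm

end Cfsg.Agent.H735
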